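import Cfsg.Agent.H357.EP.V27

/-!
# S5745, the kill V27 for `T ^ k`, `k ≥ 2`: groups of 2-rank at least four (helper357)

* `Rank4 T` : `T` contains an elementary abelian 2-group of order at least `16`;
* `no_pow` : `Rank4 T`, `2 ≤ k`: `T ^ k` is not a subgroup of `E₆(q)`, `²E₆(q)`, `F₄(q)`, `q` odd;
* `rank4_of` : four commuting involutions;
* `rank4_alt`, `rank4_psl34`, `rank4_psl42`, `rank4_psp6`.
-/

set_option autoImplicit false

namespace Cfsg.Agent.H357.EP

open Cfsg Matrix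

/-- `T` contains an elementary abelian 2-group of order at least `16` -/
def Rank4 (T : Type*) [Group T] : Prop :=
  ∃ (A : Type) (_ : Group A) (_ : Finite A) (f : A →* T), Function.Injective f ∧ (∀ x : A, x * x = 1) ∧
    16 ≤ Nat.card A

theorem Rank4.mono {S T : Type*} [Group S] [Group T] (h : Rank4 S) (f : S →* T) (hf : Function.Injective f) :
    Rank4 T := by
  obtain ⟨A, i1, i2, g, h1, h2, h3⟩ := h
  exact ⟨A, i1, i2, f.comp g, hf.comp h1, h2, h3⟩

theorem Rank4.congr {S T : Type*} [Group S] [Group T] (h : Rank4 S) (e : T ≃* S) : Rank4 T :=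
  h.mono e.symm.toMonoidHom e.symm.injective

/-- **the 2-rank kills `T ^ k`** -/
theorem no_pow {T : Type*} [Group T] (h4 : Rank4 T) {k : ℕ} (hk : 2 ≤ k) (h : InE6 (Fin k → T)) : False := by
  obtain ⟨A, i1, i2, f, h1, h2, h3⟩ := h4
  have h5 := h.pow_le h2 f h1
  have h6 : 16 ^ 2 ≤ Nat.card A ^ k := (Nat.pow_le_pow_left h3 2).trans (Nat.pow_le_pow_right (by omega) hk)
  omega

/-- the cyclic group of order two -/
abbrev C2 : Type := Multiplicative (ZMod 2)

/-- the homomorphism from `C₂` -/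
def invHom {G : Type*} [Group G] (a : G) (ha : a * a = 1) : C2 →* G :=
  MonoidHom.mk' (fun x => if x = 1 then 1 else a) (by
    intro x y
    have h : ∀ x : C2, x = 1 ∨ x = Multiplicative.ofAdd 1 := by decide
    have h1 : (Multiplicative.ofAdd 1 : C2) ≠ 1 := by decide
    have h2 : (Multiplicative.ofAdd 1 : C2) * Multiplicative.ofAdd 1 = 1 := by decide
    rcases h x with rfl | rfl <;> rcases h y with rfl | rfl
    · simp
    · simp
    · simp
    · rw [h2, if_pos rfl, if_neg h1, ha])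

theorem invHom_apply {G : Type*} [Group G] (a : G) (ha : a * a = 1) (x : C2) :
    invHom a ha x = if x = 1 then 1 else a := rfl

/-- one more involution -/
theorem exists_ext {G : Type*} [Group G] {A : Type} [Group A] [Finite A] (hA : ∀ x : A, x * x = 1) (f : A →* G)
    (hf : Function.Injective f) {t : G} (ht : t * t = 1) (hc : ∀ x, f x * t = t * f x) (hn : ∀ x, f x ≠ t) :
    ∃ g : A × C2 →* G, Function.Injective g ∧ (∀ x : A × C2, x * x = 1) ∧ Nat.card (A × C2) = Nat.card A * 2 ∧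
      ∀ x, g x = f x.1 ∨ g x = f x.1 * t := by
  have hcomm : ∀ (m : A) (n : C2), Commute (f m) (invHom t ht n) := by
    intro m n
    rw [invHom_apply]
    split_ifs
    · exact Commute.one_right _
    · exact hc m
  refine ⟨MonoidHom.noncommCoprod f (invHom t ht) hcomm, ?_, ?_, ?_, ?_⟩
  · rw [injective_iff_map_eq_one]
    rintro ⟨x, y⟩ hxy
    rw [MonoidHom.noncommCoprod_apply, invHom_apply] at hxy
    dsimp only at hxy
    split_ifs at hxy with hy
    · rw [mul_one] at hxy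
      exact Prod.ext ((injective_iff_map_eq_one f).1 hf _ hxy) hy
    · exfalso
      apply hn x
      calc f x = f x * (t * t) := by rw [ht, mul_one]
        _ = t := by rw [← mul_assoc, hxy, one_mul]
  · intro x
    refine Prod.ext (hA _) ?_
    revert x
    intro x
    have : ∀ y : C2, y * y = 1 := by decide
    exact this _
  · rw [Nat.card_prod, Nat.card_congr Multiplicative.toAdd, Nat.card_zmod]
  · intro x
    rw [MonoidHom.noncommCoprod_apply, invHom_apply]
    split_ifs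
    · exact Or.inl (mul_one _)
    · exact Or.inr rfl

/-- four commuting involutions, independent -/
theorem rank4_of {G : Type*} [Group G] {a b c d : G} (ha : a * a = 1) (hb : b * b = 1) (hc : c * c = 1) (hd : d * d = 1)
    (hab : a * b = b * a) (hac : a * c = c * a) (had : a * d = d * a) (hbc : b * c = c * b) (hbd : b * d = d * b)
    (hcd : c * d = d * c) (h1 : a ≠ 1) (h2 : b ≠ 1) (h3 : b ≠ a)
    (h4 : ∀ x ∈ [1, a, b, a * b], x ≠ c)
    (h5 : ∀ x ∈ [1, a, b, a * b, c, a * c, b * c, a * b * c], x ≠ d) : Rank4 G := by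
  simp only [List.mem_cons, List.not_mem_nil, or_false, forall_eq_or_imp, forall_eq] at h4 h5
  obtain ⟨f1, i1, s1, k1, e1⟩ := exists_ext (A := PUnit.{1}) (fun _ => rfl) (1 : PUnit.{1} →* G)
    (fun _ _ _ => rfl) ha (fun x => by simp) (fun x => by simpa using h1.symm)
  have v1 : ∀ x, f1 x = 1 ∨ f1 x = a := fun x => by
    rcases e1 x with h | h
    · left; rw [h]; rfl
    · right; rw [h]; simp
  obtain ⟨f2, i2, s2, k2, e2⟩ := exists_ext s1 f1 i1 hb
    (fun x => by rcases v1 x with h | h <;> rw [h] <;> simp [hab])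
    (fun x => by
      rcases v1 x with h | h <;> rw [h]
      · exact h2.symm
      · exact h3.symm)
  have v2 : ∀ x, f2 x = 1 ∨ f2 x = a ∨ f2 x = b ∨ f2 x = a * b := fun x => by
    rcases e2 x with h | h <;> rcases v1 x.1 with h' | h' <;> rw [h, h'] <;> simp
  obtain ⟨f3, i3, s3, k3, e3⟩ := exists_ext s2 f2 i2 hc
    (fun x => by
      rcases v2 x with h | h | h | h <;> rw [h]
      · simp
      · exact hac
      · exact hbc
      · rw [mul_assoc, hbc, ← mul_assoc, hac, mul_assoc])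
    (fun x => by
      rcases v2 x with h | h | h | h <;> rw [h]
      · exact h4.1
      · exact h4.2.1
      · exact h4.2.2.1
      · exact h4.2.2.2)
  have v3 : ∀ x, f3 x = 1 ∨ f3 x = a ∨ f3 x = b ∨ f3 x = a * b ∨ f3 x = c ∨ f3 x = a * c ∨ f3 x = b * c ∨
      f3 x = a * b * c := fun x => by
    rcases e3 x with h | h <;> rcases v2 x.1 with h' | h' | h' | h' <;> rw [h, h'] <;> simp
  have cd : ∀ x, f3 x * d = d * f3 x := fun x => by
    rcases v3 x with h | h | h | h | h | h | h | h <;> rw [h]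
    · simp
    · exact had
    · exact hbd
    · rw [mul_assoc, hbd, ← mul_assoc, had, mul_assoc]
    · exact hcd
    · rw [mul_assoc, hcd, ← mul_assoc, had, mul_assoc]
    · rw [mul_assoc, hcd, ← mul_assoc, hbd, mul_assoc]
    · rw [mul_assoc, hcd, ← mul_assoc, mul_assoc a b d, hbd, ← mul_assoc a d b, had, mul_assoc d a b,
        mul_assoc d (a * b) c]
  obtain ⟨f4, i4, s4, k4, -⟩ := exists_ext s3 f3 i3 hd cd
    (fun x => by
      rcases v3 x with h | h | h | h | h | h | h | h <;> rw [h]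
      · exact h5.1
      · exact h5.2.1
      · exact h5.2.2.1
      · exact h5.2.2.2.1
      · exact h5.2.2.2.2.1
      · exact h5.2.2.2.2.2.1
      · exact h5.2.2.2.2.2.2.1
      · exact h5.2.2.2.2.2.2.2)
  refine ⟨_, inferInstance, inferInstance, f4, i4, s4, ?_⟩
  rw [k4, k3, k2, k1]
  simp

/-! ### Alternating groups -/

/-- the permutation given by an involutory function -/
def qq (f : Fin 8 → Fin 8) (h : ∀ i, f (f i) = i) : Equiv.Perm (Fin 8) := ⟨f, f, h, h⟩

def f1 : Fin 8 → Fin 8 := ![1, 0, 3, 2, 4, 5, 6, 7]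
def f2 : Fin 8 → Fin 8 := ![2, 3, 0, 1, 4, 5, 6, 7]
def f3 : Fin 8 → Fin 8 := ![0, 1, 2, 3, 5, 4, 7, 6]
def f4 : Fin 8 → Fin 8 := ![0, 1, 2, 3, 6, 7, 4, 5]

theorem g1 : ∀ i, f1 (f1 i) = i := by decide
theorem g2 : ∀ i, f2 (f2 i) = i := by decide
theorem g3 : ∀ i, f3 (f3 i) = i := by decide
theorem g4 : ∀ i, f4 (f4 i) = i := by decide

theorem s1 : qq f1 g1 = Equiv.swap 0 1 * Equiv.swap 2 3 := by
  ext i; fin_cases i <;> rfl

theorem s2 : qq f2 g2 = Equiv.swap 0 2 * Equiv.swap 1 3 := by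
  ext i; fin_cases i <;> rfl

theorem s3 : qq f3 g3 = Equiv.swap 4 5 * Equiv.swap 6 7 := by
  ext i; fin_cases i <;> rfl

theorem s4 : qq f4 g4 = Equiv.swap 4 6 * Equiv.swap 5 7 := by
  ext i; fin_cases i <;> rfl

theorem mem_alt {i j k l : Fin 8} {x : Equiv.Perm (Fin 8)} (hx : x = Equiv.swap i j * Equiv.swap k l) (h : i ≠ j)
    (h' : k ≠ l) : x ∈ alternatingGroup (Fin 8) := by
  rw [Equiv.Perm.mem_alternatingGroup, hx, Equiv.Perm.sign_mul, Equiv.Perm.sign_swap h, Equiv.Perm.sign_swap h']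
  rfl

/-- the four involutions -/
def a1 : alternatingGroup (Fin 8) := ⟨qq f1 g1, mem_alt s1 (by decide) (by decide)⟩
def a2 : alternatingGroup (Fin 8) := ⟨qq f2 g2, mem_alt s2 (by decide) (by decide)⟩
def a3 : alternatingGroup (Fin 8) := ⟨qq f3 g3, mem_alt s3 (by decide) (by decide)⟩
def a4 : alternatingGroup (Fin 8) := ⟨qq f4 g4, mem_alt s4 (by decide) (by decide)⟩

theorem ext8 {x y : alternatingGroup (Fin 8)} (h : ∀ i, (x : Equiv.Perm (Fin 8)) i = (y : Equiv.Perm (Fin 8)) i) :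
    x = y := Subtype.ext (Equiv.ext h)

theorem ne8 {x y : alternatingGroup (Fin 8)} (i : Fin 8)
    (h : (x : Equiv.Perm (Fin 8)) i ≠ (y : Equiv.Perm (Fin 8)) i) : x ≠ y := by
  rintro rfl
  exact h rfl

theorem c12 : ∀ i, f1 (f2 i) = f2 (f1 i) := by decide
theorem c13 : ∀ i, f1 (f3 i) = f3 (f1 i) := by decide
theorem c14 : ∀ i, f1 (f4 i) = f4 (f1 i) := by decide
theorem c23 : ∀ i, f2 (f3 i) = f3 (f2 i) := by decide
theorem c24 : ∀ i, f2 (f4 i) = f4 (f2 i) := by decide
theorem c34 : ∀ i, f3 (f4 i) = f4 (f3 i) := by decide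

theorem rank4_alt8 : Rank4 (alternatingGroup (Fin 8)) := by
  refine rank4_of (a := a1) (b := a2) (c := a3) (d := a4) (ext8 g1) (ext8 g2) (ext8 g3) (ext8 g4) (ext8 c12)
    (ext8 c13) (ext8 c14) (ext8 c23) (ext8 c24) (ext8 c34)
    (ne8 0 (show f1 0 ≠ 0 by decide)) (ne8 0 (show f2 0 ≠ 0 by decide)) (ne8 0 (show f2 0 ≠ f1 0 by decide)) ?_ ?_
  · simp only [List.mem_cons, List.not_mem_nil, or_false, forall_eq_or_imp, forall_eq]
    exact ⟨ne8 4 (show (4 : Fin 8) ≠ f3 4 by decide), ne8 4 (show f1 4 ≠ f3 4 by decide),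
      ne8 4 (show f2 4 ≠ f3 4 by decide), ne8 4 (show f1 (f2 4) ≠ f3 4 by decide)⟩
  · simp only [List.mem_cons, List.not_mem_nil, or_false, forall_eq_or_imp, forall_eq]
    exact ⟨ne8 4 (show (4 : Fin 8) ≠ f4 4 by decide), ne8 4 (show f1 4 ≠ f4 4 by decide),
      ne8 4 (show f2 4 ≠ f4 4 by decide), ne8 4 (show f1 (f2 4) ≠ f4 4 by decide),
      ne8 4 (show f3 4 ≠ f4 4 by decide), ne8 4 (show f1 (f3 4) ≠ f4 4 by decide),
      ne8 4 (show f2 (f3 4) ≠ f4 4 by decide), ne8 4 (show f1 (f2 (f3 4)) ≠ f4 4 by decide)⟩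

/-- **`A_n`, `n ≥ 8`** -/
theorem rank4_alt {n : ℕ} (hn : 8 ≤ n) : Rank4 (alternatingGroup (Fin n)) := by
  let e : Fin 8 ≃ {x : Fin n // (x : ℕ) < 8} :=
    ⟨fun i => ⟨⟨i, by omega⟩, i.2⟩, fun x => ⟨x.1, x.2⟩, fun _ => rfl, fun _ => rfl⟩
  let g : Equiv.Perm (Fin 8) →* Equiv.Perm (Fin n) := Equiv.Perm.extendDomainHom e
  have hg : ∀ x ∈ alternatingGroup (Fin 8), g x ∈ alternatingGroup (Fin n) := by
    intro x hx
    rw [Equiv.Perm.mem_alternatingGroup] at hx ⊢
    rw [← hx]
    exact Equiv.Perm.sign_extendDomain x e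
  refine rank4_alt8.mono ((g.comp (alternatingGroup (Fin 8)).subtype).codRestrict _ fun x => hg x x.2) ?_
  intro x y hxy
  exact Subtype.ext (Equiv.Perm.extendDomainHom_injective e (congrArg Subtype.val hxy))

/-! ### `L₃(4)` -/

section

variable {F : Type} [Field F]

theorem tau_center {a b : F} (h : tau a b ∈ Subgroup.center (SpecialLinearGroup (Fin 3) F)) : a = 0 ∧ b = 0 := by
  by_contra hcon
  have hne : a ≠ 0 ∨ b ≠ 0 := by
    by_contra h2
    push Not at h2
    exact hcon h2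
  have h1 := tau_conj hne
  have key : ∀ x : SpecialLinearGroup (Fin 3) F, IsConj x (tau a b) → x = tau a b := by
    intro x hx
    obtain ⟨g, hg⟩ := isConj_iff.1 hx
    have h2 := Subgroup.mem_center_iff.1 h g
    have h3 : x = g⁻¹ * tau a b * g := by rw [← hg]; group
    rw [h3, mul_assoc, ← h2]
    group
  have h2 := key _ h1
  have h3 : IsConj (tau (0 : F) 1) (tau a b) :=
    (tau_conj (a := (0 : F)) (b := 1) (Or.inr one_ne_zero)).symm.trans h1
  have h4 := key _ h3
  rw [← h4] at h2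
  exact one_ne_zero (tau_inj h2).1

theorem rank4_psl34 [Fintype F] (hF : Fintype.card F = 4) : Rank4 (ProjectiveSpecialLinearGroup (Fin 3) F) := by
  have h2 : (2 : F) = 0 := by
    have h4 : ((4 : ℕ) : F) = 0 := by rw [← hF]; exact Nat.cast_card_eq_zero F
    have : (2 : F) * 2 = 0 := by norm_num at h4 ⊢; exact_mod_cast h4
    exact mul_self_eq_zero.1 this
  have hadd : ∀ a : F, a + a = 0 := fun a => by rw [← two_mul, h2, zero_mul]
  refine ⟨Multiplicative (F × F), inferInstance, inferInstance,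
    (QuotientGroup.mk' (Subgroup.center (SpecialLinearGroup (Fin 3) F))).comp (tauHom F), ?_, ?_, ?_⟩
  · rw [injective_iff_map_eq_one]
    intro x hx
    have h1 : tau x.toAdd.1 x.toAdd.2 ∈ Subgroup.center (SpecialLinearGroup (Fin 3) F) :=
      (QuotientGroup.eq_one_iff _).1 hx
    obtain ⟨h3, h4⟩ := tau_center h1
    exact Multiplicative.toAdd.injective (Prod.ext h3 h4)
  · intro x
    apply Multiplicative.toAdd.injective
    exact Prod.ext (hadd _) (hadd _)
  · rw [Nat.card_congr Multiplicative.toAdd, Nat.card_prod, Nat.card_eq_fintype_card, hF]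

end

end Cfsg.Agent.H357.EP
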