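import Cfsg.Agent.H357.EP.Rank

/-!
# S5745, 2-rank at least four: `L₄(q)`, `S₆(q)`, `q` even (helper357)
-/

set_option autoImplicit false

namespace Cfsg.Agent.H357.EP

open Cfsg Matrix

section

variable {F : Type} [Field F]

/-- the block unipotent matrix -/
def bm4 (v : F × F × F × F) : SpecialLinearGroup (Fin 4) F :=
  ⟨!![1, 0, v.1, v.2.1; 0, 1, v.2.2.1, v.2.2.2; 0, 0, 1, 0; 0, 0, 0, 1], by
    simp [Matrix.det_succ_row_zero, Fin.sum_univ_succ]⟩

theorem bm4_mul (v w : F × F × F × F) : bm4 v * bm4 w = bm4 (v + w) := by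
  apply Subtype.ext
  show (!![1, 0, v.1, v.2.1; 0, 1, v.2.2.1, v.2.2.2; 0, 0, 1, 0; 0, 0, 0, 1] : Matrix (Fin 4) (Fin 4) F) *
    !![1, 0, w.1, w.2.1; 0, 1, w.2.2.1, w.2.2.2; 0, 0, 1, 0; 0, 0, 0, 1] =
    !![1, 0, v.1 + w.1, v.2.1 + w.2.1; 0, 1, v.2.2.1 + w.2.2.1, v.2.2.2 + w.2.2.2; 0, 0, 1, 0; 0, 0, 0, 1]
  ext i j
  fin_cases i <;> fin_cases j <;> simp [Matrix.mul_apply, Fin.sum_univ_four, add_comm]

/-- **`L₄(q)`, `q` even** -/
theorem rank4_psl4 [Finite F] (h2 : (2 : F) = 0) : Rank4 (ProjectiveSpecialLinearGroup (Fin 4) F) := by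
  have := Fintype.ofFinite F
  have hadd : ∀ a : F, a + a = 0 := fun a => by rw [← two_mul, h2, zero_mul]
  let f : Multiplicative (F × F × F × F) →* SpecialLinearGroup (Fin 4) F :=
    MonoidHom.mk' (fun v => bm4 v.toAdd) fun v w => (bm4_mul _ _).symm
  refine ⟨Multiplicative (F × F × F × F), inferInstance, inferInstance,
    (QuotientGroup.mk' (Subgroup.center (SpecialLinearGroup (Fin 4) F))).comp f, ?_, ?_, ?_⟩
  · rw [injective_iff_map_eq_one]
    intro x hx
    have h1 : bm4 x.toAdd ∈ Subgroup.center (SpecialLinearGroup (Fin 4) F) :=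
      (QuotientGroup.eq_one_iff _).1 hx
    obtain ⟨r, -, hr⟩ := Matrix.SpecialLinearGroup.mem_center_iff.1 h1
    have h3 : ∀ i j : Fin 4, i ≠ j → (bm4 x.toAdd : Matrix (Fin 4) (Fin 4) F) i j = 0 := by
      intro i j hij
      rw [← hr, Matrix.scalar_apply, Matrix.diagonal_apply_ne _ hij]
    have e1 : x.toAdd.1 = 0 := h3 0 2 (by decide)
    have e2 : x.toAdd.2.1 = 0 := h3 0 3 (by decide)
    have e3 : x.toAdd.2.2.1 = 0 := h3 1 2 (by decide)
    have e4 : x.toAdd.2.2.2 = 0 := h3 1 3 (by decide)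
    exact Multiplicative.toAdd.injective (Prod.ext e1 (Prod.ext e2 (Prod.ext e3 e4)))
  · intro x
    apply Multiplicative.toAdd.injective
    exact Prod.ext (hadd _) (Prod.ext (hadd _) (Prod.ext (hadd _) (hadd _)))
  · rw [Nat.card_congr Multiplicative.toAdd, Nat.card_prod, Nat.card_prod, Nat.card_prod]
    have h3 : 2 ≤ Nat.card F := Finite.one_lt_card
    calc 16 = 2 * (2 * (2 * 2)) := by norm_num
      _ ≤ _ := by gcongr

/-- a symmetric matrix -/
def sm3 (v : F × F × F × F) : Matrix (Fin 3) (Fin 3) F :=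
  !![v.1, v.2.1, v.2.2.1; v.2.1, v.2.2.2, 0; v.2.2.1, 0, 0]

theorem sm3_add (v w : F × F × F × F) : sm3 (v + w) = sm3 v + sm3 w := by
  ext i j
  fin_cases i <;> fin_cases j <;> simp [sm3]

theorem sm3_tr (v : F × F × F × F) : (sm3 v)ᵀ = sm3 v := by
  ext i j
  fin_cases i <;> fin_cases j <;> simp [sm3]

theorem sp_mem (v : F × F × F × F) :
    fromBlocks (1 : Matrix (Fin 3) (Fin 3) F) (sm3 v) 0 1 ∈ symplecticGroup (Fin 3) F := by
  rw [SymplecticGroup.mem_iff, Matrix.J, fromBlocks_transpose, fromBlocks_multiply, fromBlocks_multiply, sm3_tr]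
  simp

/-- the symplectic matrices -/
def sp3 (v : F × F × F × F) : symplecticGroup (Fin 3) F := ⟨_, sp_mem v⟩

theorem sp3_mul (v w : F × F × F × F) : sp3 v * sp3 w = sp3 (v + w) := by
  apply Subtype.ext
  show fromBlocks (1 : Matrix (Fin 3) (Fin 3) F) (sm3 v) 0 1 * fromBlocks 1 (sm3 w) 0 1 = fromBlocks 1 (sm3 (v + w)) 0 1
  rw [fromBlocks_multiply, sm3_add]
  simp [add_comm]

/-- **`S₆(q)`, `q` even** -/
theorem rank4_psp6 [Finite F] (h2 : (2 : F) = 0) : Rank4 (PSp 3 F) := by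
  have := Fintype.ofFinite F
  have hadd : ∀ a : F, a + a = 0 := fun a => by rw [← two_mul, h2, zero_mul]
  let f : Multiplicative (F × F × F × F) →* symplecticGroup (Fin 3) F :=
    MonoidHom.mk' (fun v => sp3 v.toAdd) fun v w => (sp3_mul _ _).symm
  refine ⟨Multiplicative (F × F × F × F), inferInstance, inferInstance,
    (QuotientGroup.mk' (Subgroup.center (symplecticGroup (Fin 3) F))).comp f, ?_, ?_, ?_⟩
  · rw [injective_iff_map_eq_one]
    intro x hx
    have h1 : sp3 x.toAdd ∈ Subgroup.center (symplecticGroup (Fin 3) F) := (QuotientGroup.eq_one_iff _).1 hx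
    have h3 := Subgroup.mem_center_iff.1 h1 (SymplecticGroup.symJ (Fin 3) F)
    have h4 : Matrix.J (Fin 3) F * fromBlocks (1 : Matrix (Fin 3) (Fin 3) F) (sm3 x.toAdd) 0 1 =
        fromBlocks 1 (sm3 x.toAdd) 0 1 * Matrix.J (Fin 3) F := congrArg Subtype.val h3
    rw [Matrix.J, fromBlocks_multiply, fromBlocks_multiply, fromBlocks_inj] at h4
    have h5 : sm3 x.toAdd = 0 := by
      have := h4.1
      simp at this
      exact this.symm
    have e1 : x.toAdd.1 = 0 := congrFun (congrFun h5 0) 0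
    have e2 : x.toAdd.2.1 = 0 := congrFun (congrFun h5 0) 1
    have e3 : x.toAdd.2.2.1 = 0 := congrFun (congrFun h5 0) 2
    have e4 : x.toAdd.2.2.2 = 0 := congrFun (congrFun h5 1) 1
    exact Multiplicative.toAdd.injective (Prod.ext e1 (Prod.ext e2 (Prod.ext e3 e4)))
  · intro x
    apply Multiplicative.toAdd.injective
    exact Prod.ext (hadd _) (Prod.ext (hadd _) (Prod.ext (hadd _) (hadd _)))
  · rw [Nat.card_congr Multiplicative.toAdd, Nat.card_prod, Nat.card_prod, Nat.card_prod]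
    have h3 : 2 ≤ Nat.card F := Finite.one_lt_card
    calc 16 = 2 * (2 * (2 * 2)) := by norm_num
      _ ≤ _ := by gcongr

/-! ### `L₆(q)` -/

/-- the first three coordinates -/
def Bs (F : Type) [Field F] : Matrix (Fin 6) (Fin 3) F := fun i j => if (i : ℕ) = j then 1 else 0

/-- the last three coordinates -/
def Cs (F : Type) [Field F] : Matrix (Fin 3) (Fin 6) F := fun i j => if (j : ℕ) = i + 3 then 1 else 0

theorem CsBs : Cs F * Bs F = 0 := by
  ext i j
  rw [Matrix.mul_apply, Matrix.zero_apply]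
  apply Finset.sum_eq_zero
  intro x _
  rw [Cs, Bs]
  split_ifs with h1 h2
  · omega
  · rw [mul_zero]
  · rw [zero_mul]
  · rw [zero_mul]

/-- the block unipotent matrix -/
def vm (V : Matrix (Fin 3) (Fin 3) F) : Matrix (Fin 6) (Fin 6) F := 1 + Bs F * V * Cs F

theorem vm_mul (H K : Matrix (Fin 3) (Fin 3) F) : vm H * vm K = vm (H + K) := by
  have h : Bs F * H * Cs F * (Bs F * K * Cs F) = 0 := by
    calc _ = Bs F * H * (Cs F * Bs F) * K * Cs F := by simp only [Matrix.mul_assoc]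
      _ = 0 := by rw [CsBs, Matrix.mul_zero, Matrix.zero_mul, Matrix.zero_mul]
  unfold vm
  rw [Matrix.add_mul, Matrix.mul_add, Matrix.mul_add, h, Matrix.mul_add, Matrix.add_mul]
  simp only [one_mul, mul_one, add_zero]
  abel

theorem vm_det (h2 : (2 : F) = 0) (H : Matrix (Fin 3) (Fin 3) F) : (vm H).det = 1 := by
  have h0 : H + H = 0 := by rw [← two_smul F, h2, zero_smul]
  have h := congrArg Matrix.det (vm_mul H H)
  have h1 : vm (0 : Matrix (Fin 3) (Fin 3) F) = 1 := by
    unfold vm; rw [Matrix.mul_zero, Matrix.zero_mul, add_zero]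
  rw [h0, h1, Matrix.det_mul, Matrix.det_one] at h
  have h3 : ((vm H).det - 1) * ((vm H).det - 1) = 0 := by linear_combination h + (1 - (vm H).det) * h2
  exact sub_eq_zero.1 (mul_self_eq_zero.1 h3)

theorem vm_apply (V : Matrix (Fin 3) (Fin 3) F) (i j : Fin 3) :
    vm V ⟨i, by omega⟩ ⟨j + 3, by omega⟩ = V i j := by
  have h1 : (1 : Matrix (Fin 6) (Fin 6) F) ⟨i, by omega⟩ ⟨j + 3, by omega⟩ = 0 :=
    Matrix.one_apply_ne fun h => by
      have := congrArg Fin.val h
      simp only at this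
      omega
  rw [vm, Matrix.add_apply, h1, zero_add, Matrix.mul_apply, Finset.sum_eq_single j]
  · rw [Matrix.mul_apply, Finset.sum_eq_single i]
    · simp [Bs, Cs]
    · intro b _ hb
      rw [Bs, if_neg, zero_mul]
      intro h
      exact hb (Fin.ext h.symm)
    · intro h; exact absurd (Finset.mem_univ _) h
  · intro b _ hb
    rw [Cs, if_neg, mul_zero]
    intro h
    exact hb (Fin.ext (by simp only at h; omega))
  · intro h; exact absurd (Finset.mem_univ _) h

/-- **`L₆(q)`, `q` even, does not embed into `E₆(r)`, `²E₆(r)`, `F₄(r)`, `r` odd** -/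
theorem not_inE6_psl6 [Finite F] (h2 : (2 : F) = 0) : ¬ InE6 (ProjectiveSpecialLinearGroup (Fin 6) F) := by
  intro h
  let f : Multiplicative (Matrix (Fin 3) (Fin 3) F) →* SpecialLinearGroup (Fin 6) F :=
    MonoidHom.mk' (fun v => ⟨vm v.toAdd, vm_det h2 _⟩) fun v w => Subtype.ext (vm_mul _ _).symm
  have hinj : Function.Injective ((QuotientGroup.mk' (Subgroup.center (SpecialLinearGroup (Fin 6) F))).comp f) := by
    rw [injective_iff_map_eq_one]
    intro x hx
    have h1 : f x ∈ Subgroup.center (SpecialLinearGroup (Fin 6) F) := (QuotientGroup.eq_one_iff _).1 hx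
    obtain ⟨r, -, hr⟩ := Matrix.SpecialLinearGroup.mem_center_iff.1 h1
    apply Multiplicative.toAdd.injective
    ext i j
    rw [← vm_apply x.toAdd i j]
    have h3 : vm x.toAdd = Matrix.scalar (Fin 6) r := hr.symm
    rw [h3, Matrix.scalar_apply, Matrix.diagonal_apply_ne]
    · rfl
    · intro h
      have := congrArg Fin.val h
      simp only at this
      omega
  have h1 := h.card_le_hom (fun x => by
    apply Multiplicative.toAdd.injective
    show x.toAdd + x.toAdd = 0
    rw [← two_smul F, h2, zero_smul]) _ hinj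
  have h3 : 2 ≤ Nat.card F := Finite.one_lt_card
  have h4 : Nat.card (Multiplicative (Matrix (Fin 3) (Fin 3) F)) = Nat.card F ^ 9 := by
    rw [Nat.card_congr Multiplicative.toAdd]
    show Nat.card (Fin 3 → Fin 3 → F) = _
    rw [Nat.card_fun, Nat.card_fun, Nat.card_eq_fintype_card (α := Fin 3), Fintype.card_fin, ← pow_mul]
  rw [h4] at h1
  have h5 := Nat.pow_le_pow_left h3 9
  omega

end

end Cfsg.Agent.H357.EP
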